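import Mathlib
import Cfsg.Agent.LeU.A5.Main
import Cfsg.Agent.H3x.Net
import Cfsg.Agent.Comp.J1.Iso
import Cfsg.Agent.Classical.SmallRecog

set_option autoImplicit false
set_option maxRecDepth 100000

namespace Cfsg.Agent.LeU.A5
open Cfsg.Agent.Comp Cfsg.Agent.Schur Cfsg.Agent.H3x Subgroup

/-- a centraliser of order at most 120 that contains a copy of the presented group -/
theorem cent_iso {H : Type*} [Group H] [Finite H] {t : H} (ht : orderOf t = 2)
    (hc : Nat.card (centralizer ({t} : Set H)) ≤ 120) (u : ℕ → H) (hu : Sat u R) (h0 : u 0 ≠ 1)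
    (hm : ∀ x < 4, u x ∈ centralizer ({t} : Set H)) :
    Nonempty (centralizer ({t} : Set H) ≃* Multiplicative (ZMod 2) × alternatingGroup (Fin 5)) := by
  have := simple
  have := card.1
  obtain ⟨e⟩ := Classical.SmallRecog.equiv_A5_of_simple card.2.1
  obtain ⟨φ, h1, h2⟩ := pres.lift hR u hu
  have h3 : φ.range ≤ centralizer ({t} : Set H) := h2 ▸ gen_le.mpr hm
  have h4 : Function.Injective φ := by
    rw [← MonoidHom.ker_eq_bot_iff]
    refine φ.normal_ker.eq_bot_or_eq_top.resolve_right fun h => h0 ?_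
    rw [← h1 0 (by norm_num)]
    exact (h ▸ mem_top _ : s 0 ∈ φ.ker)
  let t' : centralizer ({t} : Set H) := ⟨t, mem_centralizer_singleton_iff.2 rfl⟩
  have ht' : orderOf t' = 2 := (orderOf_coe t').symm.trans ht
  have tc : ∀ y : centralizer ({t} : Set H), Commute t' y := fun y =>
    Subtype.ext (mem_centralizer_singleton_iff.1 y.2).symm
  let g : alternatingGroup (Fin 5) →* centralizer ({t} : Set H) :=
    (φ.codRestrict _ fun x => h3 ⟨x, rfl⟩).comp e.symm.toMonoidHom
  have hg : Function.Injective g := fun a b h =>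
    e.symm.injective (h4 (congrArg Subtype.val h))
  obtain ⟨k⟩ : Nonempty (Multiplicative (ZMod 2) ≃* zpowers t') :=
    ⟨mulEquivOfCyclicCardEq (by simp [ht'])⟩
  let f : Multiplicative (ZMod 2) →* centralizer ({t} : Set H) :=
    (zpowers t').subtype.comp k.toMonoidHom
  have hf : ∀ a, f a ∈ zpowers t' := fun a => (k a).2
  have cm : ∀ a b, Commute (f a) (g b) := fun a b => by
    obtain ⟨n, hn⟩ := hf a
    rw [← hn]
    exact (tc _).zpow_left n
  have inj : Function.Injective (MonoidHom.noncommCoprod f g cm) := by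
    refine (MonoidHom.noncommCoprod_injective f g cm).2
      ⟨Subtype.val_injective.comp k.injective, hg, ?_⟩
    rw [disjoint_iff_inf_le]
    rintro _ ⟨⟨a, ha⟩, b, rfl⟩
    have h5 : b ∈ center (alternatingGroup (Fin 5)) := mem_center_iff.2 fun c => hg (by
      rw [map_mul, map_mul, ← ha]; exact (cm a c).symm)
    have h6 : center (alternatingGroup (Fin 5)) = ⊥ :=
      alternatingGroup.center_eq_bot (by simp)
    rw [h6] at h5
    rw [mem_bot.1 h5, map_one]
    exact one_mem _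
  refine ⟨(MulEquiv.ofBijective _ (inj.bijective_of_nat_card_le ?_)).symm⟩
  rw [Nat.card_prod, ← Nat.card_congr e.toEquiv, card.2.1]
  simpa using hc

open Cfsg.Agent.Comp.J1 in
theorem prJ : PR phiJ 266 660 J1.T :=
  ⟨cardJ.2.2, repJ.bd,
    repJ.trans (sch := [4, 3, 2, 4, 1, 3, 2, 0, 1, 3, 4, 3, 2, 0, 1, 3, 0, 4, 2]) (by decide +kernel),
    cardJ.2.1.trans (by norm_num), J1.ok, AllIn.of_lt fun x hx => ⟨sJ x, repJ.map x hx⟩⟩

def tw : List (List ℕ) := [[3, 2], [2, 3], [4, 3, 4, 0], [2, 0]]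

def wk : List ℕ := [0, 1, 0, 2, 0, 1, 0, 1, 0, 2, 0, 3, 0, 1, 2, 2, 3, 1, 2, 3, 0, 1, 0, 1, 0, 1, 2,
  0, 1, 0, 1, 0, 2, 0, 1, 2, 1, 0, 2, 0, 1, 0, 1, 0, 0, 1, 2, 0, 1, 0, 1, 0, 0, 1, 2, 3, 0, 1, 0, 1,
  0, 2, 3, 2, 1, 2, 0, 0, 1]

theorem cenJ : cenB (nat_lit 266) (nat_lit 9) (nat_lit 4001) J1.T [J1.n0, J1.n1, J1.n2, J1.n3] 4 [0] wk
    (nat_lit 256) (nat_lit 55) = true := by decide +kernel

theorem satJ : Sat J1.sJ (R.map (subst tw)) :=
  J1.repJ.sat_of_inj J1.cardJ.2.2 (by decide +kernel) (sat_of_relsP J1.ok (by norm_num)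
    (show relsP (nat_lit 266) (nat_lit 9) (nat_lit 0) (nat_lit 9) J1.T _ = true by decide +kernel))

theorem comm_of {H : Type*} [Group H] {a b : H} (ha : a * a = 1) (hb : b * b = 1)
    (h : a * (b * (a * b)) = 1) : b * a = a * b := by
  calc b * a = (a * a) * b * a * (b * b) := by rw [ha, hb]; simp
    _ = a * (a * (b * (a * b))) * b := by group
    _ = a * b := by rw [h]; simp

theorem ne_of_mem1 {w : List ℕ} (hw : ∀ x ∈ w, x < 5) {p q : ℕ} (hp : p < 266)
    (h : mem1 J1.T w (pt q) p = true) (hq : p ≠ q) : ev J1.sJ w ≠ 1 := fun e => by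
  have h2 := mem1_pt J1.ok hp h
  rw [← J1.repJ.ev_eq hw, e, map_one] at h2
  exact hq h2

theorem mainJ1 : ∃ t : Spor.J1, orderOf t = 2 ∧
    Nonempty (centralizer ({t} : Set Spor.J1) ≃* Multiplicative (ZMod 2) × alternatingGroup (Fin 5)) := by
  have := J1.cardJ.1
  have sq : ∀ x < 5, J1.sJ x * J1.sJ x = 1 := fun x hx => by
    simpa using J1.presJ.sat [x, x] (by revert x; decide +kernel)
  have h0 : J1.sJ 0 ≠ 1 := by
    simpa using ne_of_mem1 (w := [0]) (p := 4) (q := 5) (by decide) (by norm_num) (by decide +kernel)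
      (by norm_num)
  have ht : orderOf (J1.sJ 0) = 2 := orderOf_eq_prime (by rw [pow_two, sq 0 (by norm_num)]) h0
  have h1 := prJ.cent (by norm_num) (by norm_num) (idx := [0, 1, 2, 3]) rfl rfl cenJ
    (t := J1.sJ 0) (by simpa using J1.repJ.map 0 (by norm_num))
  have h2 : ∀ x ∈ [0, 2, 3, 4], J1.sJ x ∈ centralizer ({J1.sJ 0} : Set Spor.J1) := fun x hx => by
    rw [mem_centralizer_singleton_iff]
    by_cases h : x = 0
    · rw [h]
    refine comm_of (sq 0 (by norm_num)) (sq x (by revert x; decide)) ?_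
    simpa using J1.presJ.sat [0, x, 0, x] (by revert x; decide +kernel)
  have h3 : Nat.card (centralizer ({J1.sJ 0} : Set Spor.J1)) * 55 ≤ (266 - 256) * 660 := h1
  refine ⟨_, ht, cent_iso ht (by omega) _ satJ.subst
    (ne_of_mem1 (p := 1) (q := 2) (by decide) (by norm_num) (by decide +kernel) (by norm_num))
    fun x hx => ev_mem fun y hy => h2 y (by revert x y; decide +kernel)⟩

end Cfsg.Agent.LeU.A5
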