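import Cfsg.Agent.LeU.A5.Pres

set_option autoImplicit false
set_option maxRecDepth 100000

namespace Cfsg.Agent.LeU.A5
open Cfsg.Agent.Comp

noncomputable def n0 : Net :=
(Net.cons (nat_lit 0x1) (nat_lit 3)
(Net.cons (nat_lit 0x1) (nat_lit 1)
(Net.cons (nat_lit 0x2) (nat_lit 1)
(Net.cons (nat_lit 0x1) (nat_lit 3)
Net.nil))))

noncomputable def n1 : Net :=
(Net.cons (nat_lit 0x1) (nat_lit 3)
(Net.cons (nat_lit 0x2) (nat_lit 1)
(Net.cons (nat_lit 0x1) (nat_lit 1)
(Net.cons (nat_lit 0x1) (nat_lit 3)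
Net.nil))))

noncomputable def n2 : Net :=
(Net.cons (nat_lit 0x1) (nat_lit 3)
(Net.cons (nat_lit 0x1) (nat_lit 1)
(Net.cons (nat_lit 0x2) (nat_lit 1)
(Net.cons (nat_lit 0x1) (nat_lit 1)
(Net.cons (nat_lit 0x3) (nat_lit 3)
Net.nil)))))

noncomputable def n3 : Net :=
(Net.cons (nat_lit 0x1) (nat_lit 3)
(Net.cons (nat_lit 0x1) (nat_lit 1)
(Net.cons (nat_lit 0x2) (nat_lit 1)
(Net.cons (nat_lit 0x9) (nat_lit 1)
(Net.cons (nat_lit 0x1) (nat_lit 3)
Net.nil)))))

noncomputable def T : List Net := [n0, n1, n2, n3]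

theorem ok : TOK 5 T := TOK_of_ok (by decide +kernel)

def E : List (List Nat × List Nat) :=
  []

theorem sat : Sat (sig T) R :=
  sat_of_relsP ok (by norm_num) (show relsP (nat_lit 5) (nat_lit 3) (nat_lit 0) (nat_lit 3) T R = true by decide +kernel)

theorem eqs : ∀ e ∈ E, ev (sig T) e.1 = ev (sig T) e.2 := eqs_nil _

def lowW1 : List (List Nat) := [[0],
   [1],
   [2]]

def lowW2 : List (List Nat) := [[0],
   [1]]

theorem low_2 : 3 ≤ Nat.card (genW (sig T) lowW2) :=
  chain_step (W' := []) (b := 1) (n := 3) (m := 1) ok (le_of_subOK eqs (show subOK lowW2 [] E = true by decide +kernel)) (by decide +kernel)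
    (le_ncard_of_ivl (a := 1) ok (by norm_num) (show Nat.beq (grow T lowW2 [0, 0] (pt (nat_lit 1))) (ivl (nat_lit 1) (nat_lit 3)) = true by decide +kernel))
    (chain_base ok [])

theorem low_1 : 12 ≤ Nat.card (genW (sig T) lowW1) :=
  chain_step (W' := lowW2) (b := 4) (n := 4) (m := 3) ok (le_of_subOK eqs (show subOK lowW1 lowW2 E = true by decide +kernel)) (by decide +kernel)
    (le_ncard_of_ivl (a := 1) ok (by norm_num) (show Nat.beq (grow T lowW1 [2, 0, 0] (pt (nat_lit 4))) (ivl (nat_lit 1) (nat_lit 4)) = true by decide +kernel))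
    low_2

theorem low : 60 ≤ Nat.card (genW (sig T) (letters 4)) :=
  chain_step (W' := lowW1) (b := 0) (n := 5) (m := 12) ok (le_of_subOK eqs (show subOK (letters 4) lowW1 E = true by decide +kernel)) (by decide +kernel)
    (le_ncard_of_ivl (a := 0) ok (by norm_num) (show Nat.beq (grow T (letters 4) [3, 2, 0, 0] (pt (nat_lit 0))) (ivl (nat_lit 0) (nat_lit 5)) = true by decide +kernel))
    low_1


end Cfsg.Agent.LeU.A5
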