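import Cfsg.Agent.Comp.TC
import Cfsg.Agent.LeU.A5.Pres

set_option autoImplicit false
set_option maxRecDepth 100000

namespace Cfsg.Agent.LeU.A5.Top
open Cfsg.Agent.Comp

noncomputable def t0 : Tr := (Tr.leaf (nat_lit 0xfffffffffffffff000fffffffffffffff000fffffffffffffff000fffffffffffffff000fffffffffffffff000fffffffffffffff000fffffffffffffff000fffffffffffffff000fffffffffffffff000fffffffffffffff000fffffffffffffffc32fff073093053012c12fff0940b4012074851fff052011034033470fff010032091071000fff031030050030))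

noncomputable def T : Tr := t0

def RT : List (List (List Nat)) := [
  [[nat_lit 5],
   [nat_lit 3, nat_lit 1, nat_lit 3]],
  [[nat_lit 0, nat_lit 0]],
  [[nat_lit 0, nat_lit 2, nat_lit 0, nat_lit 2, nat_lit 0],
   [nat_lit 5]],
  [[nat_lit 2, nat_lit 3, nat_lit 2, nat_lit 3, nat_lit 2],
   [nat_lit 0, nat_lit 3, nat_lit 0]],
  []]

def HT : List (List (Nat × Nat × Nat)) := [
  [(2, 0, 0), (1, 6, 0)],
  [(0, 4, 0)],
  [(0, 5, 0), (2, 2, 0)],
  [(0, 7, 0), (0, 6, 0)],
  []]

def W : List (List Nat) := [[0],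
   [1],
   [2]]

noncomputable def P : Par := ⟨T, (nat_lit 4), (nat_lit 15), (nat_lit 72), (nat_lit 12), (nat_lit 4095), (nat_lit 5), (nat_lit 31), (nat_lit 4), (nat_lit 21), (nat_lit 32), (nat_lit 0xa418801), RT⟩

noncomputable def J0 : List Nat := [
  nat_lit 0x4d0001741c24426124066b11111111111111111111111111111111111111111111111111111111]

theorem c0 : chk T (nat_lit 4) (nat_lit 15) (nat_lit 72) (nat_lit 12) (nat_lit 4095) (nat_lit 5) (nat_lit 31) (nat_lit 4) (nat_lit 21) (nat_lit 32) (nat_lit 0xa418801) (nat_lit 2) (nat_lit 3) RT (nat_lit 16) J0 (nat_lit 16) = true := by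
  decide +kernel

theorem r0 : P.RowsOK 16 32 := chk_sound P _ _ _ J0 _ _ (by decide +kernel) c0

theorem index.{u} : IndexLe.{u} 4 A5.R W 5 :=
  indexLe_of_cert P HT (by decide +kernel)
    (show P.RowsOK 16 32 from r0)

end Cfsg.Agent.LeU.A5.Top
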